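import Cfsg.Agent.H203.LSE6
import Cfsg.Agent.H203.LSE7
import Cfsg.Agent.H203.LSE8
import Cfsg.Agent.Mrg.Omega.Lie.HeisF
import Cfsg.Agent.H337.HT.Num
import Cfsg.Agent.H912.LSUse
import Cfsg.Agent.H915.LD
import Cfsg.Agent.S1063
import Cfsg.Agent.S1064
import Cfsg.Agent.S1065

/-!
# S3540, quasisimple rows: `E6(s)`, `E7(s)`, `E8(s)` in cross characteristic (helper452)

`dead_E6`, `dead_E7`, `dead_E8`.
-/

set_option autoImplicit false

universe u v

namespace Cfsg.Agent.H452.HT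

open Cfsg Cfsg.Lie Cfsg.Agent.H915.LD Cfsg.Agent.H337.HT Cfsg.Agent.ChevalleyStructure.Elts

/-- the least degree -/
theorem le_of_ls' {F : Type u} [Field F] [Finite F] {n : ℕ} {P : Subgroup (Matrix.GeneralLinearGroup (Fin n) F)}
    (hC : Core P) {r d : ℕ} (hr : (r : F) ≠ 0)
    {T : Type v} [Group T] (h : H203.LS.LS.{v, u, u} r d T) (e : Nonempty (Soc P ≃* T)) : d ≤ n := by
  have hs : IsSimpleGroup (Soc P) := hC.simple
  obtain ⟨e⟩ := e
  have : Nontrivial T := e.symm.toEquiv.nontrivial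
  exact Cfsg.Agent.H912.Bd.le_of_ls h hr P hC.perfect e

theorem le_two_pow (s : ℕ) (hs : 1 ≤ s) : s ≤ 2 ^ (s - 1) := by
  obtain ⟨t, rfl⟩ : ∃ t, s = t + 1 := ⟨s - 1, by omega⟩
  rw [Nat.add_sub_cancel]
  exact Nat.lt_two_pow_self

/-- the crude bound for `|Aut|` -/
theorem card_aut_sq {D : ChevalleyDatum} (hD : InList D) {K : Type} [Field K] [Fintype K] {s d N : ℕ}
    (hs : Fintype.card K = s) (hc : Nat.card (D.group K) ≤ s ^ d) (hN : 4 * D.rank * d ≤ N) :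
    Nat.card (MulAut (D.group K)) ^ 2 ≤ 2 ^ (N * (s - 1) ^ 2) := by
  obtain ⟨p, hpc⟩ := CharP.exists K
  have hp : p.Prime := (CharP.char_is_prime_or_zero K p).resolve_right (CharP.char_ne_zero_of_finite K p)
  haveI : Fact p.Prime := ⟨hp⟩
  letI : Algebra (ZMod p) K := ZMod.algebra K p
  haveI : Module.Finite (ZMod p) K := Module.Finite.of_finite
  have hcard : Nat.card K = p ^ Module.finrank (ZMod p) K := by
    rw [Module.natCard_eq_pow_finrank (K := ZMod p) (V := K), Nat.card_zmod]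
  rw [Nat.card_eq_fintype_card, hs] at hcard
  obtain ⟨S, hS, hSc⟩ := Omega.TwoF.RkGen.exists_gen hD (F := K) (p := p)
  have h1 := Omega.TwoF.RkGen.card_mulAut_le S hS
  set f := Module.finrank (ZMod p) K with hf
  have hs2 : 2 ≤ s := hs ▸ Fintype.one_lt_card
  have hfs : f ≤ s - 1 := by
    have : f < s := by rw [hcard]; exact Nat.lt_pow_self hp.one_lt
    omega
  have h2 : Nat.card (D.group K) ≤ 2 ^ ((s - 1) * d) := by
    rw [pow_mul]
    exact hc.trans (Nat.pow_le_pow_left (le_two_pow s (by omega)) _)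
  calc Nat.card (MulAut (D.group K)) ^ 2 ≤ (Nat.card (D.group K) ^ S.card) ^ 2 := Nat.pow_le_pow_left h1 2
    _ ≤ ((2 ^ ((s - 1) * d)) ^ S.card) ^ 2 := Nat.pow_le_pow_left (Nat.pow_le_pow_left h2 _) 2
    _ = 2 ^ ((s - 1) * d * S.card * 2) := by rw [← pow_mul, ← pow_mul, mul_assoc ((s - 1) * d)]
    _ ≤ 2 ^ (N * (s - 1) ^ 2) := by
      apply Nat.pow_le_pow_right (by norm_num)
      calc (s - 1) * d * S.card * 2 ≤ (s - 1) * d * (2 * D.rank * (s - 1)) * 2 := by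
            apply Nat.mul_le_mul_right
            apply Nat.mul_le_mul_left
            exact hSc.trans (Nat.mul_le_mul_left _ hfs)
        _ = (4 * D.rank * d) * (s - 1) ^ 2 := by ring
        _ ≤ _ := Nat.mul_le_mul_right _ hN

/-- `T ≃ D.group K`, any `b` -/
theorem dead_of {D : ChevalleyDatum} (hD : InList D) {K : Type} [Field K] [Fintype K] {s d N k n b : ℕ}
    (hs : Fintype.card K = s) (hc : Nat.card (D.group K) ≤ s ^ d) (hN : 4 * D.rank * d ≤ N)
    (hk : (s - 1) * s ^ k ≤ n) {T : Type u} [Group T] (e : T ≃* D.group K)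
    (hb : ∀ q, 2 ≤ q → q.Coprime (Nat.card T) → b ≤ q)
    (hnum : 2 ^ (N * (s - 1) ^ 2) ≤ 2 * b ^ ((s - 1) * s ^ k - 2)) (h2 : 2 ≤ (s - 1) * s ^ k) (hb1 : 1 ≤ b) :
    Dead n T := by
  haveI : Finite T := Finite.of_equiv _ e.symm.toEquiv
  refine dead_of_pow (h2.trans hk) hb ?_
  have h1 : Nat.card (MulAut T) = Nat.card (MulAut (D.group K)) := Nat.card_congr (MulAut.congr e).toEquiv
  rw [h1]
  refine (card_aut_sq hD hs hc hN).trans (hnum.trans ?_)
  exact Nat.mul_le_mul_left 2 (Nat.pow_le_pow_right hb1 (by omega))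

/-! ### The orders -/

section ord

variable {K : Type} [Field K] [Fintype K] {s : ℕ}

theorem le_of_mul {g a b : ℕ} (hg : 1 ≤ g) (h : g * a = b) {c : ℕ} (hb : b ≤ c) : a ≤ c := by
  have : a ≤ g * a := Nat.le_mul_of_pos_left _ hg
  omega

theorem card_E6_le (hs : Fintype.card K = s) : Nat.card (chevE6.group K) ≤ s ^ 78 := by
  have hs2 : 2 ≤ s := hs ▸ Fintype.one_lt_card
  refine le_of_mul (Nat.gcd_pos_of_pos_left _ (by norm_num)) (S1063.result hs) ?_
  calc s ^ 36 * (s ^ 2 - 1) * (s ^ 5 - 1) * (s ^ 6 - 1) * (s ^ 8 - 1) * (s ^ 9 - 1) * (s ^ 12 - 1)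
      ≤ s ^ 36 * s ^ 2 * s ^ 5 * s ^ 6 * s ^ 8 * s ^ 9 * s ^ 12 := by gcongr <;> exact Nat.sub_le _ _
    _ = s ^ 78 := by ring

theorem card_E7_le (hs : Fintype.card K = s) : Nat.card (chevE7.group K) ≤ s ^ 133 := by
  have hs2 : 2 ≤ s := hs ▸ Fintype.one_lt_card
  refine le_of_mul (Nat.gcd_pos_of_pos_left _ (by norm_num)) (S1064.result hs) ?_
  calc s ^ 63 * (s ^ 2 - 1) * (s ^ 6 - 1) * (s ^ 8 - 1) * (s ^ 10 - 1) * (s ^ 12 - 1) * (s ^ 14 - 1) * (s ^ 18 - 1)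
      ≤ s ^ 63 * s ^ 2 * s ^ 6 * s ^ 8 * s ^ 10 * s ^ 12 * s ^ 14 * s ^ 18 := by gcongr <;> exact Nat.sub_le _ _
    _ = s ^ 133 := by ring

theorem card_E8_le (hs : Fintype.card K = s) : Nat.card (chevE8.group K) ≤ s ^ 248 := by
  rw [S1065.result hs]
  calc s ^ 120 * (s ^ 2 - 1) * (s ^ 8 - 1) * (s ^ 12 - 1) * (s ^ 14 - 1) * (s ^ 18 - 1) * (s ^ 20 - 1) *
      (s ^ 24 - 1) * (s ^ 30 - 1)
      ≤ s ^ 120 * s ^ 2 * s ^ 8 * s ^ 12 * s ^ 14 * s ^ 18 * s ^ 20 * s ^ 24 * s ^ 30 := by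
        gcongr <;> exact Nat.sub_le _ _
    _ = s ^ 248 := by ring

theorem coprime_gcd (m : ℕ) (hs : 1 ≤ s) : Nat.Coprime s (Nat.gcd m (s - 1)) := by
  have h1 : Nat.Coprime s (s - 1) := by
    obtain ⟨t, rfl⟩ : ∃ t, s = t + 1 := ⟨s - 1, by omega⟩
    rw [Nat.add_sub_cancel]
    simp
  exact h1.coprime_dvd_right (Nat.gcd_dvd_right _ _)

theorem dvd_E6 (hs : Fintype.card K = s) : s ∣ Nat.card (chevE6.group K) := by
  have hs2 : 2 ≤ s := hs ▸ Fintype.one_lt_card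
  refine (coprime_gcd 3 (by omega)).dvd_of_dvd_mul_left (?_ : s ∣ Nat.gcd 3 (s - 1) * _)
  rw [S1063.result hs]
  simp only [mul_assoc]
  exact Dvd.dvd.mul_right (dvd_pow_self s (by norm_num)) _

theorem dvd_E7 (hs : Fintype.card K = s) : s ∣ Nat.card (chevE7.group K) := by
  have hs2 : 2 ≤ s := hs ▸ Fintype.one_lt_card
  refine (coprime_gcd 2 (by omega)).dvd_of_dvd_mul_left (?_ : s ∣ Nat.gcd 2 (s - 1) * _)
  rw [S1064.result hs]
  simp only [mul_assoc]
  exact Dvd.dvd.mul_right (dvd_pow_self s (by norm_num)) _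

theorem dvd_E8 (hs : Fintype.card K = s) : s ∣ Nat.card (chevE8.group K) := by
  rw [S1065.result hs]
  simp only [mul_assoc]
  exact Dvd.dvd.mul_right (dvd_pow_self s (by norm_num)) _

end ord

/-! ### The rows -/

section rows

variable {F : Type u} [Field F] [Finite F] {n p : ℕ} [Fact p.Prime] [CharP F p]
  {P : Subgroup (Matrix.GeneralLinearGroup (Fin n) F)} {K : Type} [Field K] [Fintype K]

omit [Finite F] in
/-- `r` is not zero in `F` -/
theorem ne_zero {r : ℕ} [CharP K r] (hp : ¬ p ∣ Nat.card (Soc P)) {D : ChevalleyDatum} (e : Nonempty (Soc P ≃* D.group K))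
    (hd : Fintype.card K ∣ Nat.card (D.group K)) : (r : F) ≠ 0 := by
  intro h0
  have hr : r.Prime := (CharP.char_is_prime_or_zero K r).resolve_right (CharP.char_ne_zero_of_finite K r)
  have h1 : p = r := (Nat.prime_dvd_prime_iff_eq Fact.out hr).1 ((CharP.cast_eq_zero_iff F p r).1 h0)
  apply hp
  obtain ⟨e⟩ := e
  rw [Nat.card_congr e.toEquiv, h1]
  refine dvd_trans ?_ hd
  haveI : Fact r.Prime := ⟨hr⟩
  obtain ⟨k, -, hk⟩ := FiniteField.card K r
  rw [hk]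
  exact dvd_pow_self r k.ne_zero

theorem dead_E8 (hC : Core P) (hp : ¬ p ∣ Nat.card (Soc P)) (e : Nonempty (Soc P ≃* chevE8.group K)) :
    Dead n (Soc P) := by
  obtain ⟨r, hrc⟩ := CharP.exists K
  have hr : (r : F) ≠ 0 := ne_zero hp e (dvd_E8 rfl)
  have hn := le_of_ls' hC hr (H203.LS.E8.ls.{0, u, u} (r := r) K) e
  rw [Nat.card_eq_fintype_card] at hn
  obtain ⟨e⟩ := e
  set s := Fintype.card K with hs
  have hs2 : 2 ≤ s := hs ▸ Fintype.one_lt_card
  have h1 : 2 ^ 27 * s ≤ s ^ 28 := by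
    rw [pow_succ s 27]
    exact Nat.mul_le_mul_right _ (Nat.pow_le_pow_left hs2 27)
  have h4 : 1 ≤ (s - 1) ^ 2 := Nat.one_le_pow _ _ (by omega)
  obtain ⟨t, ht⟩ : ∃ t, s = t + 2 := ⟨s - 2, by omega⟩
  have h2 : 7936 * (s - 1) ^ 2 + 1 ≤ (s - 1) * s ^ 28 := by
    calc 7936 * (s - 1) ^ 2 + 1 ≤ (s - 1) * (2 ^ 27 * s) := by
          rw [ht, show t + 2 - 1 = t + 1 by omega]
          nlinarith
      _ ≤ _ := Nat.mul_le_mul_left _ h1
  refine dead_of (D := chevE8) (N := 7936) (k := 28) (b := 2) (by simp [InList]) hs.symm (card_E8_le hs.symm)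
    (by decide) hn e (fun q hq _ => hq) ?_ (by omega) (by norm_num)
  rw [← pow_succ']
  exact Nat.pow_le_pow_right (by norm_num) (by omega)

theorem dead_E7 (hC : Core P) (hp : ¬ p ∣ Nat.card (Soc P)) (e : Nonempty (Soc P ≃* chevE7.group K)) :
    Dead n (Soc P) := by
  obtain ⟨r, hrc⟩ := CharP.exists K
  have hr : (r : F) ≠ 0 := ne_zero hp e (dvd_E7 rfl)
  have hn := le_of_ls' hC hr (H203.LS.E7.ls.{0, u, u} (r := r) K) e
  rw [Nat.card_eq_fintype_card] at hn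
  obtain ⟨e⟩ := e
  set s := Fintype.card K with hs
  have hs2 : 2 ≤ s := hs ▸ Fintype.one_lt_card
  have h1 : 2 ^ 15 * s ≤ s ^ 16 := by
    rw [pow_succ s 15]
    exact Nat.mul_le_mul_right _ (Nat.pow_le_pow_left hs2 15)
  have h4 : 1 ≤ (s - 1) ^ 2 := Nat.one_le_pow _ _ (by omega)
  obtain ⟨t, ht⟩ : ∃ t, s = t + 2 := ⟨s - 2, by omega⟩
  have h2 : 3724 * (s - 1) ^ 2 + 1 ≤ (s - 1) * s ^ 16 := by
    calc 3724 * (s - 1) ^ 2 + 1 ≤ (s - 1) * (2 ^ 15 * s) := by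
          rw [ht, show t + 2 - 1 = t + 1 by omega]
          nlinarith
      _ ≤ _ := Nat.mul_le_mul_left _ h1
  refine dead_of (D := chevE7) (N := 3724) (k := 16) (b := 2) (by simp [InList]) hs.symm (card_E7_le hs.symm)
    (by decide) hn e (fun q hq _ => hq) ?_ (by omega) (by norm_num)
  rw [← pow_succ']
  exact Nat.pow_le_pow_right (by norm_num) (by omega)

theorem dead_E6 (hC : Core P) (hp : ¬ p ∣ Nat.card (Soc P)) (e : Nonempty (Soc P ≃* chevE6.group K)) :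
    Dead n (Soc P) := by
  obtain ⟨r, hrc⟩ := CharP.exists K
  have hr : (r : F) ≠ 0 := ne_zero hp e (dvd_E6 rfl)
  have hn := le_of_ls' hC hr (H203.LS.E6.ls.{0, u, u} (r := r) K) e
  rw [Nat.card_eq_fintype_card] at hn
  obtain ⟨e⟩ := e
  set s := Fintype.card K with hs
  have hs2 : 2 ≤ s := hs ▸ Fintype.one_lt_card
  rcases hs2.eq_or_lt with h | h3
  · -- `E6(2)`: `q ≥ 4`
    have hcard : 1 * Nat.card (chevE6.group K) = 2 ^ 36 * (2 ^ 2 - 1) * (2 ^ 5 - 1) * (2 ^ 6 - 1) * (2 ^ 8 - 1) *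
        (2 ^ 9 - 1) * (2 ^ 12 - 1) := by
      have := S1063.result (F := K) (q := 2) (hs.symm.trans h.symm)
      simpa using this
    have h6 : 6 ∣ Nat.card (Soc P) := by
      rw [Nat.card_congr e.toEquiv, ← one_mul (Nat.card (chevE6.group K)), hcard]
      norm_num
    refine dead_of (D := chevE6) (N := 1872) (k := 10) (b := 4) (by simp [InList]) hs.symm (card_E6_le hs.symm)
      (by decide) hn e (fun q hq hc => ?_) ?_ (by rw [← h]; norm_num) (by norm_num)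
    · have h7 : Nat.Coprime q 6 := hc.coprime_dvd_right h6
      by_contra hlt
      have : q = 2 ∨ q = 3 := by omega
      rcases this with rfl | rfl <;> revert h7 <;> decide
    · rw [← h]
      calc 2 ^ (1872 * (2 - 1) ^ 2) ≤ 2 * 2 ^ (2 * 1022) := by
            rw [← pow_succ']
            exact Nat.pow_le_pow_right (by norm_num) (by norm_num)
        _ = 2 * 4 ^ ((2 - 1) * 2 ^ 10 - 2) := by
            have e1 : (2 - 1) * 2 ^ 10 - 2 = 1022 := by norm_num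
            have e2 : (4 : ℕ) = 2 ^ 2 := by norm_num
            rw [e1, e2, ← pow_mul]
  · have h1 : 3 ^ 9 * s ≤ s ^ 10 := by
      rw [pow_succ s 9]
      exact Nat.mul_le_mul_right _ (Nat.pow_le_pow_left h3 9)
    have h4 : 1 ≤ (s - 1) ^ 2 := Nat.one_le_pow _ _ (by omega)
    obtain ⟨t, ht⟩ : ∃ t, s = t + 2 := ⟨s - 2, by omega⟩
    have h2 : 1872 * (s - 1) ^ 2 + 1 ≤ (s - 1) * s ^ 10 := by
      calc 1872 * (s - 1) ^ 2 + 1 ≤ (s - 1) * (3 ^ 9 * s) := by
            rw [ht, show t + 2 - 1 = t + 1 by omega]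
            nlinarith
        _ ≤ _ := Nat.mul_le_mul_left _ h1
    refine dead_of (D := chevE6) (N := 1872) (k := 10) (b := 2) (by simp [InList]) hs.symm (card_E6_le hs.symm)
      (by decide) hn e (fun q hq _ => hq) ?_ (by omega) (by norm_num)
    rw [← pow_succ']
    exact Nat.pow_le_pow_right (by norm_num) (by omega)

end rows

end Cfsg.Agent.H452.HT
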